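import Mathlib
import Cfsg.Agent.Lib.WD.Defs

/-!
# Standard sporadic components (project S3G, statement S3095): type-free vocabulary and toolkit
-/

set_option autoImplicit false

namespace CfsgLib.S3G

open Subgroup Cfsg

variable {L : Type} {G : Type*} [Group L] [Group G]

/-- the class of `z` -/
def Cl (z u : L) : Prop := ∃ l : L, l * z * l⁻¹ = u

/-- the frame: `C(t)` acts on `A = ι L`, `C(t) ∩ C(A) = Y × ⟨t⟩`, `t` is not conjugate into `A`, `t ~ t z` -/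
structure Fr (z : L) (ι : L →* G) (t : G) (Y : Subgroup G) : Prop where
  zz : z * z = 1
  z1 : z ≠ 1
  cen : ∀ l : L, (∀ x, l * x = x * l) → l = 1
  inj : Function.Injective ι
  sq : t * t = 1
  ne : t ≠ 1
  comm : ∀ l, t * ι l = ι l * t
  yodd : ∀ y ∈ Y, Odd (orderOf y)
  yt : ∀ y ∈ Y, y * t = t * y
  yl : ∀ y ∈ Y, ∀ l, y * ι l = ι l * y
  act : ∀ g, g * t = t * g → ∃ φ : MulAut L, ∀ l, g * ι l * g⁻¹ = ι (φ l)
  ker : ∀ g, g * t = t * g → (∀ l, g * ι l = ι l * g) → g ∈ Y ∨ g * t ∈ Y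
  nconj : ∀ g l, g * t * g⁻¹ ≠ ι l
  fus : ∃ g, g * t * g⁻¹ = t * ι z

/-- the system of involutions `κ u`, `u` conjugate to `z` -/
structure Kap (z : L) (ι : L →* G) (t : G) (Y : Subgroup G) (κ : L → G) : Prop where
  sq : ∀ u, Cl z u → κ u * κ u = 1
  act : ∀ u, Cl z u → κ u * t * κ u = t * ι u
  cen : ∀ u, Cl z u → ∀ c, c * u = u * c → κ u * ι c = ι c * κ u
  cY : ∀ u, Cl z u → ∀ y ∈ Y, κ u * y = y * κ u
  eqv : ∀ u, Cl z u → ∀ l, ι l * κ u * (ι l)⁻¹ = κ (l * u * l⁻¹)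

/-- `κ u` commutes with `κ' u' = κ u' * ι u'` -/
def Nr (ι : L →* G) (κ : L → G) (u u' : L) : Prop := κ u * (κ u' * ι u') = κ u' * ι u' * κ u

/-- the wreathed case: `A1` and `t A1 t` commute and `ι L` is the diagonal (`A1` is a central extension of `L` by a group of
odd order, see `Db.ker_odd`) -/
structure Db (ι : L →* G) (t : G) (Y : Subgroup G) (A1 : Subgroup G) : Prop where
  diag : ∀ l, ∃ x ∈ A1, x * (t * x * t) = ι l
  into : ∀ x ∈ A1, ∃ l, x * (t * x * t) = ι l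
  comm : ∀ x ∈ A1, ∀ x' ∈ A1, x * (t * x' * t) = t * x' * t * x
  cY : ∀ x ∈ A1, ∀ y ∈ Y, x * y = y * x
  gen : A1 ≤ closure {x | x ∈ A1 ∧ x * x = 1}

variable {z : L} {ι : L →* G} {t : G} {Y : Subgroup G} {κ : L → G}

theorem Cl.refl (z : L) : Cl z z := ⟨1, by simp⟩
theorem Cl.conj {u : L} (h : Cl z u) (l : L) : Cl z (l * u * l⁻¹) := by
  obtain ⟨m, rfl⟩ := h; exact ⟨l * m, by group⟩

namespace Fr

theorem usq (f : Fr z ι t Y) {u : L} (h : Cl z u) : u * u = 1 := by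
  obtain ⟨m, rfl⟩ := h
  calc _ = m * (z * z) * m⁻¹ := by group
    _ = 1 := by rw [f.zz]; group

theorem une (f : Fr z ι t Y) {u : L} (h : Cl z u) : u ≠ 1 := by
  obtain ⟨m, rfl⟩ := h
  intro e
  exact f.z1 (by calc z = m⁻¹ * (m * z * m⁻¹) * m := by group
    _ = 1 := by rw [e]; group)

theorem t_inv (f : Fr z ι t Y) : t⁻¹ = t := inv_eq_of_mul_eq_one_right f.sq

theorem y_one (f : Fr z ι t Y) {y : G} (hy : y ∈ Y) {k : ℕ} (h : y ^ 2 ^ k = 1) : y = 1 := by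
  have h1 := orderOf_dvd_of_pow_eq_one h
  have h2 : (orderOf y).Coprime (2 ^ k) := Nat.Coprime.pow_right _ (Nat.coprime_two_right.2 (f.yodd y hy))
  exact orderOf_eq_one_iff.1 (Nat.Coprime.eq_one_of_dvd h2 h1)

theorem y_sq (f : Fr z ι t Y) {y : G} (hy : y ∈ Y) (h : y * y = 1) : y = 1 :=
  f.y_one hy (k := 1) (by simpa [pow_two] using h)

/-- an element of `C(t)` acting as the inner automorphism given by `l` -/
theorem dec (f : Fr z ι t Y) {g : G} (hg : g * t = t * g) {l : L} (h : ∀ x, g * ι x * g⁻¹ = ι (l * x * l⁻¹)) :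
    ∃ y ∈ Y, g = ι l * y ∨ g = ι l * y * t := by
  have h1 : (ι l)⁻¹ * g * t = t * ((ι l)⁻¹ * g) := by
    rw [mul_assoc, hg, ← mul_assoc, ← mul_assoc, ← map_inv, f.comm]
  have h2 : ∀ x, (ι l)⁻¹ * g * ι x = ι x * ((ι l)⁻¹ * g) := fun x => by
    calc _ = (ι l)⁻¹ * (g * ι x * g⁻¹) * g := by group
      _ = _ := by rw [h]; simp only [map_mul, map_inv]; group
  rcases f.ker _ h1 h2 with h3 | h3
  · exact ⟨_, h3, Or.inl (by group)⟩
  · refine ⟨_, h3, Or.inr ?_⟩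
    calc g = g * (t * t) := by rw [f.sq, mul_one]
      _ = _ := by group

theorem inj2 (f : Fr z ι t Y) {l : L} {y : G} (hy : y ∈ Y) (h : ι l * y = 1) : l = 1 ∧ y = 1 := by
  have e : ι l = y⁻¹ := eq_inv_of_mul_eq_one_left h
  have hl : l = 1 := f.cen l fun x => f.inj (by
    rw [map_mul, map_mul, e]; exact f.yl _ (Y.inv_mem hy) x)
  subst hl
  exact ⟨rfl, by simpa using h⟩

theorem ne_t (f : Fr z ι t Y) (l : L) {y : G} (hy : y ∈ Y) : ι l * y ≠ t := by
  intro h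
  have e : ι l = t * y⁻¹ := by rw [← h]; group
  have hl : l = 1 := f.cen l fun x => f.inj (by
    rw [map_mul, map_mul, e, mul_assoc, f.yl _ (Y.inv_mem hy) x, ← mul_assoc, f.comm, mul_assoc])
  subst hl
  rw [map_one, one_mul] at h
  exact f.ne (h ▸ f.y_sq hy (h ▸ f.sq))

/-- an element of odd order centralising `t` and `ι L` lies in `Y` -/
theorem mem_Y (f : Fr z ι t Y) {x : G} (h1 : x * t = t * x) (h2 : ∀ l, x * ι l = ι l * x) (ho : Odd (orderOf x)) :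
    x ∈ Y := by
  rcases f.ker x h1 h2 with h | h
  · exact h
  · exfalso
    have c : Commute x t := h1
    have o := f.yodd _ h
    have e : (x * t) ^ (orderOf x * orderOf (x * t)) = 1 := by rw [mul_comm, pow_mul, pow_orderOf_eq_one, one_pow]
    rw [c.mul_pow, pow_mul, pow_orderOf_eq_one, one_pow, one_mul] at e
    obtain ⟨n, hn⟩ := ho.mul o
    rw [hn, pow_succ, pow_mul, pow_two, f.sq, one_pow, one_mul] at e
    exact f.ne e

theorem normY (f : Fr z ι t Y) {g y : G} (hg : g * t = t * g) (hy : y ∈ Y) : g * y * g⁻¹ ∈ Y := by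
  have hg' : g⁻¹ * t = t * g⁻¹ := by
    calc _ = g⁻¹ * (t * g) * g⁻¹ := by group
      _ = _ := by rw [← hg]; group
  obtain ⟨φ, hφ⟩ := f.act g⁻¹ hg'
  refine f.mem_Y ?_ (fun l => ?_) ?_
  · calc _ = g * y * (g⁻¹ * t) := by group
      _ = g * (y * t) * g⁻¹ := by rw [hg']; group
      _ = (g * t) * y * g⁻¹ := by rw [f.yt y hy]; group
      _ = _ := by rw [hg]; group
  · calc _ = g * (y * (g⁻¹ * ι l * g⁻¹⁻¹)) * g⁻¹ := by group
      _ = g * ((g⁻¹ * ι l * g⁻¹⁻¹) * y) * g⁻¹ := by rw [hφ, f.yl y hy]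
      _ = _ := by group
  · have : orderOf (g * y * g⁻¹) = orderOf y := (MulAut.conj g).orderOf_eq y
    exact this ▸ f.yodd y hy

/-- an element of `C(t)` centralising `ι X`, when the automorphisms centralising `X` are induced by `W` -/
theorem decX (f : Fr z ι t Y) {X W : Set L} (hX : ∀ φ : MulAut L, (∀ p ∈ X, φ p = p) → ∃ u ∈ W, ∀ x, φ x = u * x * u⁻¹)
    {g : G} (hg : g * t = t * g) (h : ∀ p ∈ X, g * ι p = ι p * g) :
    ∃ u ∈ W, ∃ y ∈ Y, g = ι u * y ∨ g = ι u * y * t := by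
  obtain ⟨φ, hφ⟩ := f.act g hg
  obtain ⟨u, hu, e⟩ := hX φ fun p hp => f.inj (by rw [← hφ, h p hp]; group)
  exact ⟨u, hu, f.dec hg fun x => by rw [hφ, e]⟩

/-- `t` does not commute with an element mapping `t` to `t u` -/
theorem not_comm (f : Fr z ι t Y) {g : G} {u : L} (hu : u ≠ 1) (h : g * t * g⁻¹ = t * ι u) : g * t ≠ t * g := by
  intro e
  rw [e, mul_inv_cancel_right] at h
  exact hu (f.inj (by rw [map_one]; exact (mul_eq_left.1 h.symm)))

end Fr

namespace Kap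

theorem inv (k : Kap z ι t Y κ) {u : L} (hu : Cl z u) : (κ u)⁻¹ = κ u := inv_eq_of_mul_eq_one_right (k.sq u hu)

theorem act' (k : Kap z ι t Y κ) {u : L} (hu : Cl z u) : κ u * t * (κ u)⁻¹ = t * ι u := by rw [k.inv hu, k.act u hu]

theorem self (k : Kap z ι t Y κ) {u : L} (hu : Cl z u) : κ u * ι u = ι u * κ u := k.cen u hu u rfl

/-- `t κ(u) t = κ(u) u` -/
theorem tconj (k : Kap z ι t Y κ) (f : Fr z ι t Y) {u : L} (hu : Cl z u) : t * κ u * t = κ u * ι u := by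
  calc t * κ u * t = t * (κ u * t * κ u) * (κ u)⁻¹ := by group
    _ = (t * t) * ι u * κ u := by rw [k.act u hu, k.inv hu]; group
    _ = _ := by rw [f.sq, one_mul, k.self hu]

end Kap

end CfsgLib.S3G
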