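import Mathlib
import Cfsg.Agent.Lib.S3G.Defs

/-! # S3G: the system `κ` (type-free copy of SJ/K1c) -/

set_option autoImplicit false

namespace CfsgLib.S3G

open Subgroup Cfsg

variable {L : Type} {G : Type*} [Group L] [Group G] {z a s : L} {P0 : Subgroup L} {ι : L →* G} {t : G} {Y : Subgroup G}
  {κ : L → G}

/-- a line `z, a, z a` permuted by `s`, and a subgroup `P0` of its centraliser -/
structure LS (z a s : L) (P0 : Subgroup L) : Prop where
  zz : z * z = 1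
  aa : a * a = 1
  za : z * a = a * z
  s3 : s ^ 3 = 1
  sz : s * z * s⁻¹ = a
  sa : s * a * s⁻¹ = z * a
  zP : z ∈ P0
  aP : a ∈ P0
  cent : ∀ {p}, p ∈ P0 → p * z = z * p ∧ p * a = a * p
  norm : ∀ {p}, p ∈ P0 → s * p * s⁻¹ ∈ P0
  cC : ∀ φ : MulAut L, (∀ c ∈ centralizer {z}, φ c = c) → (∀ x, φ x = x) ∨ ∀ x, φ x = z * x * z
  cP : ∀ φ : MulAut L, (∀ p ∈ P0, φ p = p) → ∃ u : L, ∀ x, φ x = u * x * u⁻¹

theorem Fr.decC (f : Fr z ι t Y) (H : LS z a s P0) {g : G} (hg : g * t = t * g)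
    (h : ∀ c ∈ centralizer {z}, g * ι c = ι c * g) :
    ∃ u : L, (u = 1 ∨ u = z) ∧ ∃ y ∈ Y, g = ι u * y ∨ g = ι u * y * t := by
  obtain ⟨φ, hφ⟩ := f.act g hg
  rcases H.cC φ fun p hp => f.inj (by rw [← hφ, h p hp]; group) with e | e
  · exact ⟨1, Or.inl rfl, f.dec hg fun x => by rw [hφ, e]; simp⟩
  · exact ⟨z, Or.inr rfl, f.dec hg fun x => by rw [hφ, e, inv_eq_of_mul_eq_one_right H.zz]⟩

theorem Fr.decP (f : Fr z ι t Y) (H : LS z a s P0) {g : G} (hg : g * t = t * g) (h : ∀ p ∈ P0, g * ι p = ι p * g) :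
    ∃ u : L, True ∧ ∃ y ∈ Y, g = ι u * y ∨ g = ι u * y * t := by
  obtain ⟨φ, hφ⟩ := f.act g hg
  obtain ⟨u, e⟩ := H.cP φ fun p hp => f.inj (by rw [← hφ, h p hp]; group)
  exact ⟨u, trivial, f.dec hg fun x => by rw [hφ, e]⟩


theorem k1c_odd {H : Subgroup G} {x : G} (ho : Odd (orderOf x)) (h : x * x ∈ H) : x ∈ H := by
  obtain ⟨n, hn⟩ := ho
  have : (x * x) ^ (n + 1) = x := by
    rw [← pow_two, ← pow_mul, show 2 * (n + 1) = 2 * n + 1 + 1 by ring, pow_succ, ← hn, pow_orderOf_eq_one,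
      one_mul]
  exact this ▸ pow_mem h _

theorem k1c_zC : z ∈ (centralizer {z} : Subgroup L) := mem_centralizer_singleton_iff.2 rfl

theorem k1c_sq (f : Fr z ι t Y) {x y : G} {u : L} (hu : u = 1 ∨ u = z) (hy : y ∈ Y)
    (h : x = ι u * y ∨ x = ι u * y * t) : x * x = y * y := by
  have uu : ι u * ι u = 1 := by
    rw [← map_mul]
    rcases hu with rfl | rfl
    · simp
    · rw [f.zz, map_one]
  have e : ι u * y * (ι u * y) = y * y := by
    rw [mul_assoc, ← mul_assoc y, f.yl y hy, ← mul_assoc, ← mul_assoc, uu, one_mul]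
  rcases h with rfl | rfl
  · exact e
  · have c : Commute t (ι u * y) := Commute.mul_right (f.comm u) (f.yt y hy).symm
    rw [mul_assoc, ← mul_assoc t, c.eq, mul_assoc _ t, f.sq, mul_one, e]

theorem k1c_norm (f : Fr z ι t Y) (H : LS z a s P0) {g y : G} (h1 : g * t * g⁻¹ = t * ι z) (h2 : ∀ c ∈ (centralizer {z}), g * ι c = ι c * g)
    (hy : y ∈ Y) : g * y * g⁻¹ ∈ Y := by
  have c1 : ∀ c ∈ (centralizer {z}), Commute (g * y * g⁻¹) (ι c) := fun c hc =>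
    (Commute.mul_left (h2 c hc) (f.yl y hy c)).mul_left (Commute.inv_left (h2 c hc))
  have c2 : Commute (g * y * g⁻¹) (t * ι z) := by
    rw [← h1]
    exact (show Commute y t from f.yt y hy).conj g
  have c3 : Commute (g * y * g⁻¹) t := by simpa using c2.mul_right (c1 z k1c_zC).inv_right
  obtain ⟨u, hu, y', hy', e⟩ := f.decC H c3 c1
  have o : orderOf (g * y * g⁻¹) = orderOf y := (MulAut.conj g).orderOf_eq y
  exact k1c_odd (o ▸ f.yodd y hy) (k1c_sq f hu hy' e ▸ mul_mem hy' hy')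

theorem k1c_t (f : Fr z ι t Y) {g : G} (h1 : g * t * g⁻¹ = t * ι z) (h2 : ∀ c ∈ (centralizer {z}), g * ι c = ι c * g) :
    Commute (g * g) t := by
  refine mul_inv_eq_iff_eq_mul.1 ?_
  calc g * g * t * (g * g)⁻¹ = g * (g * t * g⁻¹) * g⁻¹ := by group
    _ = g * (t * ι z) * g⁻¹ := by rw [h1]
    _ = g * t * g⁻¹ * (g * ι z * g⁻¹) := by group
    _ = t := by rw [h1, h2 z k1c_zC, mul_inv_cancel_right, mul_assoc, ← map_mul, f.zz, map_one, mul_one]

theorem k1c_inv [Finite G] (f : Fr z ι t Y) (H : LS z a s P0) {g : G} (h1 : g * t * g⁻¹ = t * ι z)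
    (h2 : ∀ c ∈ (centralizer {z}), g * ι c = ι c * g) :
    ∃ k : G, k * k = 1 ∧ k * t * k⁻¹ = t * ι z ∧ ∀ c ∈ (centralizer {z}), k * ι c = ι c * k := by
  obtain ⟨n, m, ⟨j, rfl⟩, e⟩ := Nat.exists_eq_two_pow_mul_odd (orderOf_pos g).ne'
  have a2 : ∀ c ∈ (centralizer {z}), g ^ (2 * j + 1) * ι c = ι c * g ^ (2 * j + 1) := fun c hc =>
    (Commute.pow_left (h2 c hc) _).eq
  have a1 : g ^ (2 * j + 1) * t * (g ^ (2 * j + 1))⁻¹ = t * ι z := by
    have c : Commute ((g * g) ^ j) (t * ι z) := ((k1c_t f h1 h2).mul_right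
      (Commute.mul_left (h2 z k1c_zC) (h2 z k1c_zC))).pow_left j
    calc _ = (g * g) ^ j * (g * t * g⁻¹) * ((g * g) ^ j)⁻¹ := by rw [pow_succ, pow_mul, pow_two]; group
      _ = _ := by rw [h1, c.eq, mul_inv_cancel_right]
  have a3 : (g ^ (2 * j + 1)) ^ 2 ^ n = 1 := by rw [← pow_mul, mul_comm, ← e, pow_orderOf_eq_one]
  generalize g ^ (2 * j + 1) = h at a1 a2 a3
  obtain ⟨u, hu, y, hy, e⟩ := f.decC H (k1c_t f a1 a2).eq
    fun c hc => (Commute.mul_left (a2 c hc) (a2 c hc)).eq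
  obtain rfl : y = 1 := f.y_one hy (k := n + 1) (by
    rw [pow_succ', pow_mul, pow_two, ← k1c_sq f hu hy e, ← pow_two, ← pow_two, ← pow_mul, ← pow_mul,
      ← mul_assoc, mul_comm, pow_mul, a3, one_pow])
  rw [mul_one] at e
  rcases e with e | e
  · rcases hu with rfl | rfl
    · exact ⟨h, by rw [e, map_one], a1, a2⟩
    · refine ⟨h * t, ?_, by rw [← a1]; group, fun c hc => (Commute.mul_left (a2 c hc) (f.comm c)).eq⟩
      calc h * t * (h * t) = h * t * h⁻¹ * (h * h) * t := by group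
        _ = t * (ι u * ι u) * t := by rw [a1, e]; group
        _ = 1 := by rw [← map_mul, f.zz, map_one, mul_one, f.sq]
  · have c : Commute h (ι u) := a2 u (by rcases hu with rfl | rfl; exacts [one_mem _, k1c_zC])
    have c' : Commute h (ι u * t) := e ▸ (Commute.refl h).mul_right (Commute.refl h)
    exact (f.not_comm f.z1 a1 (by simpa using (c.inv_right.mul_right c').eq)).elim

/-- acts on `Y` like `k`, centralises `P0`, maps `t` to `t u` -/
def K1cSt (P0 : Subgroup L) (ι : L →* G) (t : G) (Y : Subgroup G) (k g : G) (u : L) : Prop :=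
  g * t * g⁻¹ = t * ι u ∧ (∀ p ∈ P0, Commute g (ι p)) ∧ ∀ y ∈ Y, g * y * g⁻¹ = k * y * k⁻¹

theorem k1c_step (f : Fr z ι t Y) (H : LS z a s P0) {k g : G} {u : L} (hk : ∀ y ∈ Y, k * y * k⁻¹ ∈ Y) (h : K1cSt P0 ι t Y k g u) :
    K1cSt P0 ι t Y k (ι s * g * (ι s)⁻¹) (s * u * s⁻¹) := by
  obtain ⟨h1, h2, h3⟩ := h
  refine ⟨?_, fun p hp => ?_, fun y hy => ?_⟩
  · calc _ = ι s * (g * ((ι s)⁻¹ * (t * ι s)) * g⁻¹) * (ι s)⁻¹ := by group
      _ = ι s * t * ι u * (ι s)⁻¹ := by rw [f.comm, inv_mul_cancel_left, h1]; group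
      _ = _ := by rw [← f.comm, map_mul, map_mul, map_inv]; group
  · have e : p = s * (s * (s * p * s⁻¹) * s⁻¹) * s⁻¹ := by
      calc p = s ^ 3 * p * (s ^ 3)⁻¹ := by rw [H.s3]; group
        _ = _ := by simp only [pow_succ, pow_zero]; group
    rw [e, map_mul, map_mul, map_inv]
    exact (h2 _ (H.norm (H.norm hp))).conj _
  · calc _ = ι s * (g * ((ι s)⁻¹ * (y * ι s)) * g⁻¹) * (ι s)⁻¹ := by group
      _ = _ := by rw [f.yl y hy, inv_mul_cancel_left, h3 y hy, ← f.yl _ (hk y hy), mul_inv_cancel_right]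

theorem k1c_cY (f : Fr z ι t Y) (H : LS z a s P0) {k : G} (h0 : k * k = 1) (h1 : k * t * k⁻¹ = t * ι z)
    (h2 : ∀ c ∈ (centralizer {z}), k * ι c = ι c * k) {y : G} (hy : y ∈ Y) : k * y = y * k := by
  have hk : ∀ y ∈ Y, k * y * k⁻¹ ∈ Y := fun y hy => k1c_norm f H h1 h2 hy
  have s1 : K1cSt P0 ι t Y k k z := ⟨h1, fun p hp => h2 p (mem_centralizer_singleton_iff.2 (H.cent hp).1), fun _ _ => rfl⟩
  have s2 := k1c_step f H hk s1
  rw [H.sz] at s2
  have s3 := k1c_step f H hk s2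
  rw [H.sa] at s3
  generalize ι s * (ι s * k * (ι s)⁻¹) * (ι s)⁻¹ = k3 at s3
  generalize ι s * k * (ι s)⁻¹ = k2 at s2
  have kk : ∀ y, k * (k * y * k⁻¹) * k⁻¹ = y := fun y => by
    calc _ = k * k * y * (k * k)⁻¹ := by group
      _ = y := by rw [h0]; group
  have za' := mul_mem H.zP H.aP
  have d1 : k * k2 * k3 * t = t * (k * k2 * k3) := mul_inv_eq_iff_eq_mul.1 (by
    calc _ = k * (k2 * (k3 * t * k3⁻¹) * k2⁻¹) * k⁻¹ := by group
      _ = k * (k2 * t * k2⁻¹ * (k2 * ι (z * a) * k2⁻¹)) * k⁻¹ := by rw [s3.1]; group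
      _ = k * t * k⁻¹ * (k * ι (a * (z * a)) * k⁻¹) := by
        rw [s2.1, (s2.2.1 _ za').eq, map_mul ι a]; group
      _ = t * ι (z * (a * (z * a))) := by
        rw [h1, (s1.2.1 _ (mul_mem H.aP za')).eq, map_mul ι z]; group
      _ = t := by rw [H.za, ← mul_assoc a, H.aa, one_mul, f.zz, map_one, mul_one])
  obtain ⟨u, -, y0, hy0, e⟩ := f.decP H d1 fun p hp =>
    (((s1.2.1 p hp).mul_left (s2.2.1 p hp)).mul_left (s3.2.1 p hp)).eq
  have d2 : ∀ y ∈ Y, k * y * k⁻¹ = y0 * y * y0⁻¹ := fun y hy => by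
    have e1 : ι u * y0 * y * (ι u * y0)⁻¹ = y0 * y * y0⁻¹ := by
      calc _ = ι u * (y0 * y * y0⁻¹) * (ι u)⁻¹ := by group
        _ = _ := by rw [← f.yl _ (mul_mem (mul_mem hy0 hy) (inv_mem hy0)), mul_inv_cancel_right]
    calc k * y * k⁻¹ = k * (k2 * (k3 * y * k3⁻¹) * k2⁻¹) * k⁻¹ := by rw [s3.2.2 y hy, s2.2.2 _ (hk y hy), kk]
      _ = k * k2 * k3 * y * (k * k2 * k3)⁻¹ := by group
      _ = _ := by
        rcases e with e | e <;> rw [e, ← e1]
        rw [mul_assoc _ t, ← f.yt y hy]; group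
  have d3 : y0 * y0 ∈ centralizer {y} := mem_centralizer_singleton_iff.2 (mul_inv_eq_iff_eq_mul.1 (by
    calc _ = y0 * (y0 * y * y0⁻¹) * y0⁻¹ := by group
      _ = y := by rw [← d2 y hy, ← d2 _ (hk y hy), kk]))
  rw [← mul_inv_eq_iff_eq_mul, d2 y hy, mem_centralizer_singleton_iff.1 (k1c_odd (f.yodd y0 hy0) d3),
    mul_inv_cancel_right]

theorem k1c [Finite G] (f : Fr z ι t Y) (H : LS z a s P0) {g : G} (h1 : g * t * g⁻¹ = t * ι z) (h2 : ∀ c ∈ (centralizer {z}), g * ι c = ι c * g) :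
    ∃ κ : L → G, Kap z ι t Y κ := by
  classical
  obtain ⟨k, h0, h1, h2⟩ := k1c_inv f H h1 h2
  obtain ⟨κ, hκ⟩ : ∃ κ : L → G, ∀ l, κ (l * z * l⁻¹) = ι l * k * (ι l)⁻¹ := by
    refine ⟨fun u => if h : Cl z u then ι h.choose * k * (ι h.choose)⁻¹ else 1, fun l => ?_⟩
    have h : Cl z (l * z * l⁻¹) := ⟨l, rfl⟩
    simp only [dif_pos h]
    have e := h.choose_spec
    generalize h.choose = m at e
    have c := h2 (l⁻¹ * m) (mem_centralizer_singleton_iff.2 (by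
      calc _ = l⁻¹ * (m * z * m⁻¹) * m := by group
        _ = _ := by rw [e]; group))
    rw [map_mul, map_inv] at c
    calc _ = ι l * ((ι l)⁻¹ * ι m * k) * (ι m)⁻¹ := by group
      _ = _ := by rw [← c]; group
  refine ⟨κ, ?_, ?_, ?_, ?_, ?_⟩ <;> rintro _ ⟨l, rfl⟩ <;> rw [hκ]
  · calc _ = ι l * (k * k) * (ι l)⁻¹ := by group
      _ = 1 := by rw [h0]; group
  · rw [inv_eq_of_mul_eq_one_right h0] at h1
    calc _ = ι l * (k * ((ι l)⁻¹ * (t * ι l)) * k) * (ι l)⁻¹ := by group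
      _ = ι l * t * ι z * (ι l)⁻¹ := by rw [f.comm, inv_mul_cancel_left, h1]; group
      _ = _ := by rw [← f.comm, map_mul, map_mul, map_inv]; group
  · intro c hc
    have e := h2 (l⁻¹ * c * l) (mem_centralizer_singleton_iff.2 (by
      calc _ = l⁻¹ * (c * (l * z * l⁻¹)) * l := by group
        _ = _ := by rw [hc]; group))
    rw [map_mul, map_mul, map_inv] at e
    calc _ = ι l * (k * ((ι l)⁻¹ * ι c * ι l)) * (ι l)⁻¹ := by group
      _ = _ := by rw [e]; group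
  · intro y hy
    have c : Commute (ι l) y := (f.yl y hy l).symm
    exact ((c.mul_left (k1c_cY f H h0 h1 h2 hy)).mul_left c.inv_left).eq
  · intro m
    rw [show m * (l * z * l⁻¹) * m⁻¹ = m * l * z * (m * l)⁻¹ by group, hκ, map_mul]
    group

end CfsgLib.S3G
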