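import Mathlib
import Cfsg.Agent.Lib.S3G.Defs

/-! # S3G: from pairwise near generators to the doubled group -/

set_option autoImplicit false

namespace CfsgLib.S3G

open Subgroup Cfsg

variable {L : Type} {G : Type*} [Group L] [Group G] {z : L} {ι : L →* G} {t : G} {Y : Subgroup G} {κ : L → G}

theorem Nr.conj (k : Kap z ι t Y κ) {u u' : L} (hu : Cl z u) (hu' : Cl z u') (h : Nr ι κ u u') (l : L) :
    Nr ι κ (l * u * l⁻¹) (l * u' * l⁻¹) := by
  unfold Nr at h ⊢
  rw [← k.eqv u hu, ← k.eqv u' hu', map_mul, map_mul, map_inv]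
  calc _ = ι l * (κ u * (κ u' * ι u')) * (ι l)⁻¹ := by group
    _ = _ := by rw [h]; group

theorem Nr.symm (f : Fr z ι t Y) (k : Kap z ι t Y κ) {u u' : L} (hu : Cl z u) (hu' : Cl z u') (h : Nr ι κ u u') :
    Nr ι κ u' u := by
  have c : Commute (κ u) (κ u' * ι u') := h
  have c2 := c.conj t
  rw [f.t_inv, k.tconj f hu, ← k.tconj f hu', ← mul_assoc, ← mul_assoc, f.sq, one_mul, mul_assoc (κ u'), f.sq,
    mul_one] at c2
  exact c2.symm.eq

theorem Nr.refl (k : Kap z ι t Y κ) {u : L} (hu : Cl z u) : Nr ι κ u u := by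
  unfold Nr; rw [mul_assoc, k.self hu]

/-- closure step -/
theorem Nr.step (f : Fr z ι t Y) (k : Kap z ι t Y κ) {u u1 u2 : L} (h1 : Cl z u1) (h2 : Cl z u2)
    (n1 : Nr ι κ u u1) (n2 : Nr ι κ u u2) (n : Nr ι κ u1 u2) : Nr ι κ u (u1 * u2 * u1) := by
  have i1 : u1⁻¹ = u1 := inv_eq_of_mul_eq_one_right (f.usq h1)
  have e : κ (u1 * u2 * u1) * ι (u1 * u2 * u1) = κ u1 * ι u1 * (κ u2 * ι u2) * (κ u1 * ι u1) := by
    have := k.eqv u2 h2 u1
    rw [← map_inv, i1] at this
    unfold Nr at n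
    have q1 : ι u1 * ι u1 = 1 := by rw [← map_mul, f.usq h1, map_one]
    rw [← this, map_mul, map_mul, k.self h1, mul_assoc (ι u1) (κ u1), n, ← k.self h1]
    calc _ = ι u1 * κ u2 * (ι u1 * ι u1) * ι u2 * ι u1 := by simp only [mul_assoc]
      _ = ι u1 * (κ u2 * ι u2) * (κ u1 * κ u1) * ι u1 := by rw [q1, k.sq u1 h1]; simp only [mul_one, mul_assoc]
      _ = _ := by simp only [mul_assoc]
  unfold Nr at *
  rw [e]
  exact ((Commute.mul_right (Commute.mul_right n1 n2) n1 : Commute _ _)).eq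

theorem db (f : Fr z ι t Y) (k : Kap z ι t Y κ) {Γ : Set L} (hc : ∀ u ∈ Γ, Cl z u)
    (hn : ∀ u ∈ Γ, ∀ u' ∈ Γ, Nr ι κ u u') (hg : closure Γ = ⊤) : Db ι t Y (closure (κ '' Γ)) := by
  have tt : ∀ x y : G, t * (x * y) * t = t * x * t * (t * y * t) := fun x y => by
    calc _ = t * x * 1 * y * t := by group
      _ = _ := by rw [← f.sq]; group
  have ti : ∀ x : G, t * x⁻¹ * t = (t * x * t)⁻¹ := fun x => by
    rw [mul_inv_rev, mul_inv_rev, f.t_inv, mul_assoc]
  have comm : ∀ x ∈ closure (κ '' Γ), ∀ x' ∈ closure (κ '' Γ), Commute x (t * x' * t) := by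
    intro x hx x' hx'
    induction hx, hx' using closure_induction₂ with
    | mem x y hx hy =>
      obtain ⟨u, hu, rfl⟩ := hx
      obtain ⟨u', hu', rfl⟩ := hy
      rw [k.tconj f (hc u' hu')]
      exact hn u hu u' hu'
    | one_left => exact Commute.one_left _
    | one_right => rw [mul_one, f.sq]; exact Commute.one_right _
    | mul_left _ _ _ _ _ _ h1 h2 => exact h1.mul_left h2
    | mul_right _ _ _ _ _ _ h1 h2 => rw [tt]; exact h1.mul_right h2
    | inv_left _ _ _ _ h => exact h.inv_left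
    | inv_right _ _ _ _ h => rw [ti]; exact h.inv_right
  have pm : ∀ x ∈ closure (κ '' Γ), ∀ y ∈ closure (κ '' Γ),
      x * y * (t * (x * y) * t) = x * (t * x * t) * (y * (t * y * t)) := fun x hx y hy => by
    rw [tt]
    calc _ = x * (y * (t * x * t)) * (t * y * t) := by group
      _ = _ := by rw [(comm y hy x hx).eq]; group
  have pi : ∀ x ∈ closure (κ '' Γ), x⁻¹ * (t * x⁻¹ * t) = (x * (t * x * t))⁻¹ := fun x hx => by
    rw [ti, (comm x hx x hx).eq]; group
  have pg : ∀ u ∈ Γ, κ u * (t * κ u * t) = ι u := fun u hu => by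
    rw [k.tconj f (hc u hu), ← mul_assoc, k.sq u (hc u hu), one_mul]
  refine ⟨fun l => ?_, fun x hx => ?_, fun x hx x' hx' => (comm x hx x' hx').eq, fun x hx y hy => ?_, ?_⟩
  · have hl : l ∈ closure Γ := hg ▸ mem_top l
    induction hl using closure_induction with
    | mem u hu => exact ⟨_, subset_closure ⟨u, hu, rfl⟩, pg u hu⟩
    | one => exact ⟨1, one_mem _, by rw [mul_one, f.sq, map_one, mul_one]⟩
    | mul _ _ _ _ h1 h2 =>
      obtain ⟨x, hx, e⟩ := h1
      obtain ⟨y, hy, e'⟩ := h2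
      exact ⟨x * y, mul_mem hx hy, by rw [pm x hx y hy, e, e', map_mul]⟩
    | inv _ _ h =>
      obtain ⟨x, hx, e⟩ := h
      exact ⟨x⁻¹, inv_mem hx, by rw [pi x hx, e, map_inv]⟩
  · induction hx using closure_induction with
    | mem _ hu => obtain ⟨u, hu, rfl⟩ := hu; exact ⟨u, pg u hu⟩
    | one => exact ⟨1, by rw [mul_one, f.sq, map_one, mul_one]⟩
    | mul x y hx hy h1 h2 =>
      obtain ⟨l, e⟩ := h1
      obtain ⟨m, e'⟩ := h2
      exact ⟨l * m, by rw [pm x hx y hy, e, e', map_mul]⟩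
    | inv x hx h =>
      obtain ⟨l, e⟩ := h
      exact ⟨l⁻¹, by rw [pi x hx, e, map_inv]⟩
  · induction hx using closure_induction with
    | mem _ hu => obtain ⟨u, hu, rfl⟩ := hu; exact k.cY u (hc u hu) y hy
    | one => simp
    | mul _ _ _ _ h1 h2 => exact (Commute.mul_left h1 h2 : Commute _ _).eq
    | inv _ _ h => exact (Commute.inv_left h : Commute _ _).eq
  · refine closure_mono ?_
    rintro _ ⟨u, hu, rfl⟩
    exact ⟨subset_closure ⟨u, hu, rfl⟩, k.sq u (hc u hu)⟩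

end CfsgLib.S3G
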